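/-
The sublattice supported on an octad, its coordinates, and its classes modulo two.
-/
import Cfsg.Agent.Leech.Co1Cent.Data
import Cfsg.Agent.Leech.Co2Cent.Group

set_option autoImplicit false
set_option maxRecDepth 100000

namespace CfsgLib.Leech.Co1Cent

open Cfsg CfsgLib.Golay Matrix CfsgLib.Leech.Co3Mult
open CfsgLib.Leech.Co2Cent (O Supp code_in_octad)

/-- The eight points. -/
def pt (j : Fin 8) : GolayPt := ptN (OctStab.inPts.getD j.val 0)

theorem pt_facts : Function.Injective pt ∧ Finset.univ.image pt = O := by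
  unfold Function.Injective; decide +kernel

theorem pt_mem (j : Fin 8) : pt j ∈ O := pt_facts.2 ▸ Finset.mem_image_of_mem _ (Finset.mem_univ j)

theorem exists_pt {p : GolayPt} (hp : p ∈ O) : ∃ j, pt j = p := by
  rw [← pt_facts.2, Finset.mem_image] at hp
  obtain ⟨j, -, h⟩ := hp
  exact ⟨j, h⟩

/-- An entry of the chosen basis. -/
def eC (i j : Fin 8) : ℤ := (eTab.getD i.val []).getD j.val 0

/-- An entry of the dual basis. -/
def dC (i j : Fin 8) : ℤ := (dTab.getD i.val []).getD j.val 0

/-- A vector on the octad, twice the given one. -/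
def vecO (c : Fin 8 → ℤ) : GolayPt → ℤ := fun q => ∑ j, if q = pt j then 2 * c j else 0

theorem vecO_pt (c : Fin 8 → ℤ) (j : Fin 8) : vecO c (pt j) = 2 * c j := by
  rw [vecO, Finset.sum_eq_single j (fun k _ hk => if_neg fun h => hk (pt_facts.1 h).symm)
    (fun h => absurd (Finset.mem_univ j) h), if_pos rfl]

theorem supp_vecO (c : Fin 8 → ℤ) : Supp (vecO c) := fun p hp =>
  Finset.sum_eq_zero fun j _ => if_neg (fun h : p = pt j => hp (h ▸ pt_mem j))

theorem sum_supp (f : GolayPt → ℤ) (hf : ∀ p, p ∉ O → f p = 0) : ∑ p, f p = ∑ j, f (pt j) := by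
  rw [← Finset.sum_subset (Finset.subset_univ O) (fun p _ hp => hf p hp), ← pt_facts.2,
    Finset.sum_image fun a _ b _ h => pt_facts.1 h]

theorem dot_supp {x : GolayPt → ℤ} (hx : Supp x) (y : GolayPt → ℤ) :
    dotInt x y = ∑ j, x (pt j) * y (pt j) := by
  rw [dotInt, sum_supp _ fun p hp => by rw [hx p hp, zero_mul]]

theorem vecO_mem : (∀ i, inLeech (vecO (eC i)) = true) ∧ ∀ i, inLeech (vecO (dC i)) = true := by
  decide +kernel

/-- A basis vector. -/
def eV (i : Fin 8) : leechLattice := ⟨vecO (eC i), inLeech_spec (vecO_mem.1 i)⟩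

/-- A dual basis vector. -/
def dV (i : Fin 8) : leechLattice := ⟨vecO (dC i), inLeech_spec (vecO_mem.2 i)⟩

theorem supp_struct {y : GolayPt → ℤ} (hl : y ∈ leechLattice) (hs : Supp y) :
    ∃ (r : ℤ) (a : Fin 8 → ℤ), (∀ j, y (pt j) = 2 * (2 * a j + r)) ∧ 2 ∣ ∑ j, a j := by
  obtain ⟨m, hm, hpar, hsum, hcode⟩ := mem_lattice.1 hl
  have hm0 : m = 0 := by
    have := hpar (ptN 1)
    rw [hs _ OctStab.p0_not_mem] at this
    omega
  subst hm0
  let w : GolayPt → ℤ := fun p => y p / 2
  have hw : ∀ p, y p = 2 * w p := fun p => by have := hpar p; simp only [w]; omega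
  have hmem := mem_code_iff_list.1 hcode
  have hsub : wmask (half y) ||| octO = octO := by
    refine Nat.eq_of_testBit_eq fun i => ?_
    rw [Nat.testBit_or]
    by_cases hi : i < 24
    · by_cases ho : ptN i ∈ O
      · rw [mem_toSet, idx_ptN hi] at ho
        rw [ho, Bool.or_true]
      · have e : (wmask (half y)).testBit i = false := by
          have e0 : half y (ptN i) = 0 := by simp [half, hs _ ho]
          have := testBit_mask (support₂ (half y)) (ptN i)
          rw [idx_ptN hi] at this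
          rw [wmask, this]
          simpa [support₂] using e0
        rw [e, Bool.false_or]
    · have h1 := (mem_codeList.1 hmem).2
      rw [Nat.testBit_lt_two_pow (lt_of_lt_of_le h1 (Nat.pow_le_pow_right (by norm_num) (not_lt.1 hi))), Bool.false_or]
  have hcases := List.all_eq_true.1 code_in_octad _ hmem
  rw [show Nat.beq (wmask (half y) ||| octO) octO = true by rw [Nat.beq_eq]; exact hsub, cond_true,
    Bool.or_eq_true, Nat.beq_eq, Nat.beq_eq] at hcases
  have hpar2 : ∃ r : ℤ, ∀ p ∈ O, w p % 2 = r := by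
    have hbit : ∀ p, (wmask (half y)).testBit (idx p).val = decide (w p % 2 = 1) := fun p => by
      rw [wmask, testBit_mask]
      refine decide_eq_decide.2 ?_
      rw [show p ∈ support₂ (half y) ↔ half y p ≠ 0 by simp [support₂], half, ne_eq,
        ZMod.intCast_zmod_eq_zero_iff_dvd]
      simp only [w]
      omega
    rcases hcases with e | e <;> rw [e] at hbit
    · exact ⟨0, fun p _ => by have := hbit p; simp at this; omega⟩
    · refine ⟨1, fun p hp => ?_⟩
      have := hbit p
      rw [mem_toSet.1 hp] at this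
      simpa using this.symm
  obtain ⟨r, hr⟩ := hpar2
  refine ⟨r, fun j => (w (pt j) - r) / 2, fun j => ?_, ?_⟩
  · show y (pt j) = 2 * (2 * ((w (pt j) - r) / 2) + r)
    have := hr _ (pt_mem j)
    rw [hw]
    omega
  · rw [sum_supp y hs] at hsum
    simp only [Fin.sum_univ_eight] at hsum ⊢
    have := hr _ (pt_mem 0); have := hr _ (pt_mem 1); have := hr _ (pt_mem 2); have := hr _ (pt_mem 3)
    have := hr _ (pt_mem 4); have := hr _ (pt_mem 5); have := hr _ (pt_mem 6); have := hr _ (pt_mem 7)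
    simp only [hw] at hsum
    omega

theorem dot_sixteen {v w : GolayPt → ℤ} (hv : v ∈ leechLattice) (hvs : Supp v) (hw : w ∈ leechLattice)
    (hws : Supp w) : (16 : ℤ) ∣ dotInt v w := by
  obtain ⟨r, a, ha, A, hA⟩ := supp_struct hv hvs
  obtain ⟨c, b, hb, B, hB⟩ := supp_struct hw hws
  have e : dotInt v w = 16 * (∑ j, a j * b j) + 8 * c * (∑ j, a j) + 8 * r * (∑ j, b j) + 32 * (r * c) := by
    rw [dot_supp hvs]
    simp only [ha, hb, Fin.sum_univ_eight]
    ring
  exact ⟨(∑ j, a j * b j) + c * A + r * B + 2 * (r * c), by rw [e, hA, hB]; ring⟩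

/-- The coordinates. -/
def crd (v : GolayPt → ℤ) (i : Fin 8) : ℤ := dotInt v (vecO (eC i)) / 16

theorem dual_ok : ∀ p j : Fin 8, ∑ i, dC i p * eC i j = if p = j then 4 else 0 := by decide +kernel

theorem expand {v : GolayPt → ℤ} (hv : v ∈ leechLattice) (hs : Supp v) :
    v = fun q => ∑ i, crd v i * vecO (dC i) q := by
  have h16 : ∀ i, 16 * crd v i = dotInt v (vecO (eC i)) := fun i =>
    Int.mul_ediv_cancel' (dot_sixteen hv hs (inLeech_spec (vecO_mem.1 i)) (supp_vecO _))
  funext q
  by_cases hq : q ∈ O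
  · obtain ⟨p, rfl⟩ := exists_pt hq
    have e : ∑ i, (16 * crd v i) * vecO (dC i) (pt p) = 16 * v (pt p) := by
      simp only [h16, dot_supp hs, vecO_pt, Finset.sum_mul]
      rw [Finset.sum_comm]
      have : ∀ j, ∑ i, v (pt j) * (2 * eC i j) * (2 * dC i p) = 4 * v (pt j) * (if p = j then 4 else 0) := fun j => by
        rw [← dual_ok p j, Finset.mul_sum]
        exact Finset.sum_congr rfl fun i _ => by ring
      rw [Finset.sum_congr rfl fun j _ => this j, Finset.sum_eq_single p
        (fun j _ hj => by rw [if_neg (Ne.symm hj), mul_zero]) (fun h => absurd (Finset.mem_univ p) h), if_pos rfl]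
      ring
    simp only [mul_assoc, ← Finset.mul_sum] at e
    omega
  · rw [hs q hq]
    exact (Finset.sum_eq_zero fun i _ => by rw [supp_vecO _ q hq, mul_zero]).symm

theorem expand' (v : leechLattice) (hs : Supp v.1) : v = ∑ i, crd v.1 i • dV i := Subtype.ext (by
  rw [AddSubmonoidClass.coe_finset_sum]
  funext q
  rw [congrFun (expand v.2 hs) q, Finset.sum_apply]
  rfl)

/-- Half the upper part of the Gram matrix of the dual basis. -/
def gC (i l : Fin 8) : ℤ :=
  if i.val < l.val then (∑ p, dC i p * dC l p) / 4 else if i = l then (∑ p, dC i p * dC l p) / 8 else 0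

theorem gC_ok : (∀ i l : Fin 8, ∑ p, dC i p * dC l p = 4 * (gC i l + gC l i)) ∧
    ∀ i l : Fin 8, ((gC i l : ℤ) : ZMod 2) = if l.val = i.val + 4 then 1 else 0 := by decide +kernel

theorem norm_eq {v : GolayPt → ℤ} (hv : v ∈ leechLattice) (hs : Supp v) :
    sqNorm v = 32 * ∑ i, ∑ l, crd v i * crd v l * gC i l := by
  rw [← dot_self, dot_supp hs]
  have hp : ∀ p, v (pt p) = 2 * ∑ i, crd v i * dC i p := fun p => by
    rw [congrFun (expand hv hs) (pt p), Finset.mul_sum]
    exact Finset.sum_congr rfl fun i _ => by rw [vecO_pt]; ring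
  generalize crd v = n at hp ⊢
  calc ∑ p, v (pt p) * v (pt p) = ∑ p, ∑ i, ∑ l, 4 * (n i * n l * (dC i p * dC l p)) := by
        refine Finset.sum_congr rfl fun p _ => ?_
        rw [hp, mul_mul_mul_comm, Finset.sum_mul_sum, Finset.mul_sum]
        refine Finset.sum_congr rfl fun i _ => ?_
        rw [Finset.mul_sum]
        exact Finset.sum_congr rfl fun l _ => by ring
    _ = ∑ i, ∑ l, 16 * (n i * n l * gC i l + n l * n i * gC l i) := by
        rw [Finset.sum_comm]
        refine Finset.sum_congr rfl fun i _ => ?_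
        rw [Finset.sum_comm]
        refine Finset.sum_congr rfl fun l _ => ?_
        rw [← Finset.mul_sum, ← Finset.mul_sum, gC_ok.1]
        ring
    _ = 16 * (∑ i, ∑ l, n i * n l * gC i l) + 16 * ∑ l, ∑ i, n i * n l * gC i l := by
        simp only [mul_add, Finset.sum_add_distrib, ← Finset.mul_sum]
    _ = _ := by
        rw [Finset.sum_comm (f := fun l i => n i * n l * gC i l)]
        ring

/-- The space of classes. -/
abbrev V8 := Fin 4 ⊕ Fin 4 → ZMod 2

/-- The position of a coordinate. -/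
def pos : Fin 4 ⊕ Fin 4 ≃ Fin 8 := finSumFinEquiv

/-- The class of a vector. -/
def bar (v : GolayPt → ℤ) : V8 := fun k => ((crd v (pos k) : ℤ) : ZMod 2)

theorem form_bar {v : GolayPt → ℤ} (hv : v ∈ leechLattice) (hs : Supp v) :
    Cfsg.quadFormPlus 4 (ZMod 2) (bar v) = ((sqNorm v / 32 : ℤ) : ZMod 2) := by
  rw [norm_eq hv hs, Int.mul_ediv_cancel_left _ (by norm_num : (32 : ℤ) ≠ 0)]
  rw [Int.cast_sum, Finset.sum_congr rfl fun i _ => (Int.cast_sum Finset.univ _).trans
    (Finset.sum_congr rfl fun l _ => show ((crd v i * crd v l * gC i l : ℤ) : ZMod 2) =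
      (crd v i : ZMod 2) * (crd v l : ZMod 2) * (if l.val = i.val + 4 then 1 else 0) by
        rw [Int.cast_mul, Int.cast_mul, gC_ok.2])]
  simp only [Cfsg.quadFormPlus, bar, Fin.sum_univ_eight, Fin.sum_univ_four]
  simp [pos, finSumFinEquiv, Fin.castAdd, Fin.natAdd]

theorem even_diff {v w : leechLattice} (hv : Supp v.1) (hw : Supp w.1) (h : bar v.1 = bar w.1) :
    ∃ z : leechLattice, v - w = 2 • z := by
  have hd : ∀ i, (2 : ℤ) ∣ crd v.1 i - crd w.1 i := fun i => by
    obtain ⟨k, rfl⟩ := pos.surjective i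
    have := congrFun h k
    simp only [bar, ZMod.intCast_eq_intCast_iff_dvd_sub] at this
    simpa using dvd_sub_comm.1 this
  choose c hc using hd
  refine ⟨∑ i, c i • dV i, ?_⟩
  conv_lhs => rw [expand' v hv, expand' w hw, ← Finset.sum_sub_distrib]
  rw [Finset.smul_sum]
  refine Finset.sum_congr rfl fun i _ => ?_
  rw [← sub_smul, hc i, mul_smul]
  rfl

theorem eq_or_neg {v w : leechLattice} (hv : Supp v.1) (hw : Supp w.1) (nv : sqNorm v.1 = 32)
    (nw : sqNorm w.1 = 32) (h : bar v.1 = bar w.1) : v = w ∨ v = -w := by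
  by_contra hne
  push Not at hne
  obtain ⟨z, hz⟩ := even_diff hv hw h
  have hz' : v + w = 2 • (z + w) := by rw [smul_add, ← hz, two_smul]; abel
  have h128 : ∀ y : leechLattice, 2 • y ≠ 0 → 128 ≤ sqNorm (2 • y).1 := fun y hy => by
    have hy0 : y.1 ≠ 0 := fun e => hy (by rw [show y = 0 from Subtype.ext e, smul_zero])
    have h1 := sqNorm_min y.2 hy0
    have h2 : sqNorm (2 • y).1 = 4 * sqNorm y.1 := by
      rw [AddSubmonoidClass.coe_nsmul, two_smul, sqNorm_add, dot_self]; ring
    omega
  have h1 := h128 z fun e => hne.1 (sub_eq_zero.1 (hz.trans e))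
  have h2 := h128 (z + w) fun e => hne.2 (eq_neg_of_add_eq_zero_left (hz'.trans e))
  rw [← hz] at h1
  rw [← hz'] at h2
  have e1 := sqNorm_add v.1 w.1
  have e2 := sqNorm_add (v - w).1 w.1
  have e3 : dotInt (v - w).1 w.1 = dotInt v.1 w.1 - sqNorm w.1 := by
    rw [← dot_self]
    simp [dotInt, sub_mul, Finset.sum_sub_distrib]
  rw [← AddSubgroup.coe_add] at e1
  rw [← AddSubgroup.coe_add, sub_add_cancel] at e2
  omega

end CfsgLib.Leech.Co1Cent
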