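/-
The centraliser of the sign change in the automorphism group and its action on the classes.
-/
import Cfsg.Agent.Leech.Co1Cent.Lattice
import Cfsg.Agent.Leech.Co2Cent.Kernel
import Cfsg.Agent.Forms.Standard

set_option autoImplicit false
set_option maxRecDepth 100000

namespace CfsgLib.Leech.Co1Cent

open Cfsg CfsgLib.Golay Matrix CfsgLib.Leech.Co3Mult MulAction
open CfsgLib.Leech.Co2Cent (O Supp tt tt_apply tt_fix_iff CG KQ up vecU_supp)

/-- The centraliser of the sign change. -/
abbrev CZ : Subgroup Co0 := Subgroup.centralizer ({tt} : Set Co0)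

theorem cz_comm (g : CZ) : (g : Co0) * tt = tt * (g : Co0) :=
  (Subgroup.mem_centralizer_iff.1 g.2 tt rfl).symm

theorem supp_smul (g : CZ) {v : leechLattice} (h : Supp v.1) : Supp ((g : Co0) • v).1 := by
  rw [← tt_fix_iff, smul_smul, ← cz_comm, mul_smul, tt_fix_iff.2 h]

theorem supp_dV (k : Fin 8) : Supp (dV k).1 := supp_vecO _

theorem bar_dV : ∀ k l : Fin 4 ⊕ Fin 4, bar (dV (pos l)).1 k = if k = l then 1 else 0 := by decide +kernel

/-- The matrix on the classes. -/
def cmat (g : CZ) : Matrix (Fin 4 ⊕ Fin 4) (Fin 4 ⊕ Fin 4) (ZMod 2) :=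
  Matrix.of fun i k => bar ((g : Co0) • dV (pos k)).1 i

theorem dot_sum_smul {ι : Type*} (s : Finset ι) (c : ι → ℤ) (f : ι → leechLattice) (e : GolayPt → ℤ) :
    dotInt (∑ i ∈ s, c i • f i : leechLattice).1 e = ∑ i ∈ s, c i * dotInt (f i).1 e := by
  simp only [dotInt, AddSubmonoidClass.coe_finsetSum, Finset.sum_apply, Finset.mul_sum, Finset.sum_mul]
  rw [Finset.sum_comm]
  exact Finset.sum_congr rfl fun i _ => Finset.sum_congr rfl fun q _ => by simp [mul_assoc]

theorem bar_smul (g : CZ) {v : leechLattice} (hv : Supp v.1) :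
    bar ((g : Co0) • v).1 = cmat g *ᵥ bar v.1 := by
  funext k
  have hsum : (g : Co0) • v = ∑ i, crd v.1 i • ((g : Co0) • dV i) := by
    conv_lhs => rw [expand' v hv]
    show hom (g : Co0) _ = _
    rw [map_sum]
    exact Finset.sum_congr rfl fun i _ => map_zsmul (hom (g : Co0)) _ _
  have hcrd : crd ((g : Co0) • v).1 (pos k) = ∑ i, crd v.1 i * crd ((g : Co0) • dV i).1 (pos k) := by
    have h16 : ∀ i, 16 * crd ((g : Co0) • dV i).1 (pos k) = dotInt ((g : Co0) • dV i).1 (vecO (eC (pos k))) :=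
      fun i => Int.mul_ediv_cancel' (dot_sixteen ((g : Co0) • dV i).2 (supp_smul g (supp_dV i))
        (eV (pos k)).2 (supp_vecO _))
    conv_lhs => rw [crd, hsum, dot_sum_smul]
    simp only [← h16, mul_left_comm _ (16 : ℤ), ← Finset.mul_sum]
    exact Int.mul_ediv_cancel_left _ (by norm_num)
  rw [bar, hcrd, Int.cast_sum, ← Equiv.sum_comp pos]
  show _ = ∑ l, bar ((g : Co0) • dV (pos l)).1 k * bar v.1 l
  exact Finset.sum_congr rfl fun l _ => by rw [Int.cast_mul, mul_comm]; rfl

theorem cmat_mul (g h : CZ) : cmat (g * h) = cmat g * cmat h := by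
  refine Matrix.ext fun i k => ?_
  show bar (((g * h : CZ) : Co0) • dV (pos k)).1 i = (cmat g * cmat h) i k
  rw [Subgroup.coe_mul, mul_smul, bar_smul g (supp_smul h (supp_dV _))]
  rfl

theorem cmat_one : cmat 1 = 1 := Matrix.ext fun i k => by
  show bar (((1 : CZ) : Co0) • dV (pos k)).1 i = _
  rw [OneMemClass.coe_one, one_smul, bar_dV, Matrix.one_apply]

/-- The action as a monoid map. -/
def cmatHom : CZ →* Matrix (Fin 4 ⊕ Fin 4) (Fin 4 ⊕ Fin 4) (ZMod 2) where
  toFun := cmat
  map_one' := cmat_one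
  map_mul' := cmat_mul

theorem exists_lift (x : V8) : ∃ v : leechLattice, Supp v.1 ∧ bar v.1 = x := by
  refine ⟨∑ i, ((x (pos.symm i)).val : ℤ) • dV i, ?_, funext fun k => ?_⟩
  · intro p hp
    rw [AddSubmonoidClass.coe_finsetSum, Finset.sum_apply]
    exact Finset.sum_eq_zero fun i _ => by simp [supp_dV i p hp]
  · have h16 : ∀ i, 16 * crd (dV i).1 (pos k) = dotInt (dV i).1 (vecO (eC (pos k))) :=
      fun i => Int.mul_ediv_cancel' (dot_sixteen (dV i).2 (supp_dV i) (eV (pos k)).2 (supp_vecO _))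
    rw [bar, crd, dot_sum_smul]
    simp only [← h16, mul_left_comm _ (16 : ℤ), ← Finset.mul_sum]
    rw [Int.mul_ediv_cancel_left _ (by norm_num : (16 : ℤ) ≠ 0), Int.cast_sum, ← Equiv.sum_comp pos]
    rw [Finset.sum_eq_single k]
    · rw [Int.cast_mul, show ((crd (dV (pos k)).1 (pos k) : ℤ) : ZMod 2) = bar (dV (pos k)).1 k from rfl,
        bar_dV, if_pos rfl, mul_one, Equiv.symm_apply_apply, Int.cast_natCast, ZMod.natCast_zmod_val]
    · intro l _ hl
      rw [Int.cast_mul, show ((crd (dV (pos l)).1 (pos k) : ℤ) : ZMod 2) = bar (dV (pos l)).1 k from rfl,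
        bar_dV, if_neg (Ne.symm hl), mul_zero]
    · exact fun h => absurd (Finset.mem_univ k) h

theorem form_mat (g : CZ) (x : V8) :
    Cfsg.quadFormPlus 4 (ZMod 2) (cmat g *ᵥ x) = Cfsg.quadFormPlus 4 (ZMod 2) x := by
  obtain ⟨v, hv, rfl⟩ := exists_lift x
  rw [← bar_smul g hv, form_bar ((g : Co0) • v).2 (supp_smul g hv), form_bar v.2 hv, norm_smul]

/-- The isometry group. -/
abbrev O8 : Subgroup (GL (Fin 4 ⊕ Fin 4) (ZMod 2)) := Cfsg.isometryGroup (ZMod 2) (Cfsg.quadFormPlus 4 (ZMod 2))

/-- The action on the classes. -/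
def phi : CZ →* O8 :=
  cmatHom.toHomUnits.codRestrict _ fun g v _ => form_mat g v

/-- An isometry applied to a class. -/
abbrev act (A : O8) (x : V8) : V8 := ((A : GL (Fin 4 ⊕ Fin 4) (ZMod 2)) : Matrix _ _ (ZMod 2)) *ᵥ x

theorem act_phi (g : CZ) (x : V8) : act (phi g) x = cmat g *ᵥ x := rfl

theorem phi_eq_one {g : CZ} : phi g = 1 ↔ cmat g = 1 :=
  ⟨fun h => congrArg Units.val (congrArg Subtype.val h),
    fun h => Subtype.ext (Units.ext h)⟩

/-! ### The stabiliser of the fixed vector -/

/-- The class of the fixed vector. -/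
def p0 : V8 := bar Spor.leechU.1

/-- The centraliser inside the stabiliser of the fixed vector. -/
def inCZ : CG →* CZ :=
  up.codRestrict _ fun g => Subgroup.mem_centralizer_iff.2 fun h hh => by
    rw [Set.mem_singleton_iff.1 hh]
    exact (Co2Cent.up_comm g).symm

theorem coe_inCZ (g : CG) : (inCZ g : Co0) = up g := rfl

/-- The negation. -/
def negC : CZ := ⟨negOne, Subgroup.mem_centralizer_iff.2 fun h _ => Subgroup.mem_center_iff.1 negOne_central h⟩

theorem negC_smul (v : leechLattice) : (negC : Co0) • v = -v := negOne_apply v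

theorem phi_negC : phi negC = 1 := phi_eq_one.2 (Matrix.ext fun i k => by
  show bar ((negC : Co0) • dV (pos k)).1 i = _
  rw [negC_smul, Matrix.one_apply]
  revert i k
  decide +kernel)

theorem negC_sq : negC * negC = 1 := Subtype.ext negOne_sq

theorem sqNorm_u : sqNorm Spor.leechU.1 = 32 := by decide +kernel

theorem act_p0 (g : CZ) : act (phi g) p0 = bar ((g : Co0) • Spor.leechU).1 := (bar_smul g vecU_supp).symm

theorem stab_p0 {g : CZ} (h : act (phi g) p0 = p0) :
    ∃ c : CG, g = inCZ c ∨ g = inCZ c * negC := by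
  rw [act_p0] at h
  have hn : sqNorm ((g : Co0) • Spor.leechU).1 = 32 := (norm_smul _ _).trans sqNorm_u
  rcases eq_or_neg (supp_smul g vecU_supp) vecU_supp hn sqNorm_u h with e | e
  · obtain ⟨c, hc⟩ := Co2Cent.exists_of e (cz_comm g)
    exact ⟨c, Or.inl (Subtype.ext hc.symm)⟩
  · have e' : ((g * negC : CZ) : Co0) • Spor.leechU = Spor.leechU := by
      rw [Subgroup.coe_mul, mul_smul, negC_smul]
      show hom (g : Co0) (-Spor.leechU) = _
      rw [map_neg]
      show -((g : Co0) • Spor.leechU) = _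
      rw [e, neg_neg]
    obtain ⟨c, hc⟩ := Co2Cent.exists_of e' (cz_comm (g * negC))
    refine ⟨c, Or.inr ?_⟩
    rw [show inCZ c = g * negC from Subtype.ext hc, mul_assoc, negC_sq, mul_one]

theorem bv_pm : ∀ i k : Fin 3 ⊕ Fin 3, Co2Cent.bar (Co2Cent.bv k).1 i = (if i = k then 1 else 0 : ZMod 2) ∧
    Co2Cent.bar (-(Co2Cent.bv k).1) i = (if i = k then 1 else 0 : ZMod 2) := by decide +kernel

theorem inCZ_mem_ker {c : CG} : phi (inCZ c) = 1 ↔ c ∈ KQ := by
  constructor
  · intro h
    refine MonoidHom.mem_ker.2 (Subtype.ext (Matrix.ext fun i k => ?_))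
    have hb : bar (up c • Co2Cent.bv k).1 = bar (Co2Cent.bv k).1 := by
      have := bar_smul (inCZ c) (Co2Cent.root_bv k).2.1
      rw [phi_eq_one.1 h, Matrix.one_mulVec] at this
      exact this
    have hr := Co2Cent.root_bv k
    show Co2Cent.bar (up c • Co2Cent.bv k).1 i = (1 : Matrix (Fin 3 ⊕ Fin 3) (Fin 3 ⊕ Fin 3) (ZMod 2)) i k
    rcases eq_or_neg (Co2Cent.supp_smul c hr.2.1) hr.2.1 ((norm_smul _ _).trans hr.2.2.2) hr.2.2.2 hb with e | e <;>
      rw [e, Matrix.one_apply]
    · exact (bv_pm i k).1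
    · exact (bv_pm i k).2
  · intro h
    obtain ⟨x, hx⟩ := Co2Cent.exists_kel h
    refine phi_eq_one.2 (Matrix.ext fun i k => ?_)
    show bar (up c • dV (pos k)).1 i = _
    rw [hx, Co2Cent.kel_fix x (supp_dV _), bar_dV, Matrix.one_apply]

theorem phi_ker {g : CZ} (h : phi g = 1) : ∃ c ∈ KQ, g = inCZ c ∨ g = inCZ c * negC := by
  obtain ⟨c, hc⟩ := stab_p0 (g := g) (by rw [h]; exact Matrix.one_mulVec _)
  refine ⟨c, inCZ_mem_ker.1 ?_, hc⟩
  rcases hc with rfl | rfl
  · exact h
  · rwa [map_mul, phi_negC, mul_one] at h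

/-! ### Transitivity -/

/-- The class of a code. -/
def vec8 (x : ℕ) : V8 := fun k => if x.testBit (pos k).val then 1 else 0

/-- The code of a class. -/
def enc8 (x : V8) : ℕ := ∑ k, (x k).val * 2 ^ (pos k).val

theorem vec_enc : ∀ x : V8, vec8 (enc8 x) = x ∧ enc8 x < 256 := by decide +kernel

/-- A column code applied to a code. -/
def apc (cols : List ℕ) (x : ℕ) : ℕ :=
  (List.range 8).foldl (fun r k => bif x.testBit k then r ^^^ cols.getD k 0 else r) 0

/-- The code of the fixed class. -/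
def p0c : ℕ := enc8 p0

/-- The linear checks. -/
def colsChk (cols : List ℕ) : Bool :=
  (List.range 256).all fun x => Nat.blt (apc cols x) 256 && decide (∀ i : Fin 4 ⊕ Fin 4,
    (∑ k, vec8 (cols.getD (pos k).val 0) i * vec8 x k) = vec8 (apc cols x) i)

theorem cols_ok : genCols.all colsChk = true := by decide +kernel

/-- The image code of a word. -/
def ev : List ℕ → ℕ
  | [] => p0c
  | i :: r => apc (genCols.getD i []) (ev r)

/-- The reach checks. -/
def reachChk : Bool :=
  (List.range 256).all fun x => decide (Cfsg.quadFormPlus 4 (ZMod 2) (vec8 x) = 0) ||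
    reachTab.any fun a => Nat.beq a.1 x && a.2.all (fun i => Nat.blt i genCols.length) && Nat.beq (ev a.2) x

theorem reach_ok : reachChk = true := by decide +kernel

/-- The checks of a generator. -/
def genChk (n : ℕ) : Bool :=
  matOk (genMats.getD n []) (genInv.getD n []) &&
    (List.range 24).all (fun j => OctStab.inPts.contains j ==
      Co2Cent.suppChk ((genMats.getD n []).getD j 0)) &&
    (List.range 24).all (fun j => OctStab.inPts.contains j ||
      OctStab.inPts.all fun t => Nat.beq (fld ((genMats.getD n []).getD j 0) t) 8) &&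
    decide (∀ i k : Fin 4 ⊕ Fin 4,
      (((∑ p : Fin 8, (∑ j : Fin 8, 2 * dC (pos k) j * ent (genMats.getD n []) (pt p) (pt j)) / 8 *
        (2 * eC (pos i) p)) / 16 : ℤ) : ZMod 2) = vec8 ((genCols.getD n []).getD (pos k).val 0) i)

theorem gens_ok : ((List.range genMats.length).all genChk) = true ∧ genMats.length = genCols.length := by
  decide +kernel

theorem exists_gen {n : ℕ} (hn : n < genCols.length) :
    ∃ g : CZ, ∀ x < 256, act (phi g) (vec8 x) = vec8 (apc (genCols.getD n []) x) := by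
  have h := List.all_eq_true.1 gens_ok.1 n (List.mem_range.2 (gens_ok.2 ▸ hn))
  simp only [genChk, Bool.and_eq_true, List.all_eq_true (l := List.range 24), List.mem_range, Bool.or_eq_true,
    beq_iff_eq, decide_eq_true_eq] at h
  obtain ⟨⟨⟨he, hin⟩, hout⟩, hk⟩ := h
  set M := genMats.getD n []
  obtain ⟨x, hx⟩ := exists_aut he
  have hblock : ∀ p q : GolayPt, (p ∈ O ↔ q ∉ O) → ent M p q = 0 := by
    intro p q hpq
    have hq := (idx q).isLt
    by_cases hqO : q ∈ O
    · have hc : OctStab.inPts.contains (idx q).val = true := List.contains_iff_mem.2 (OctStab.mem_inPts.1 hqO)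
      have h1 : Co2Cent.suppChk (M.getD (idx q).val 0) = true := (hin _ hq).symm.trans hc
      exact Co2Cent.suppChk_spec h1 p (fun hp => (hpq.1 hp) hqO)
    · have hc : ¬ OctStab.inPts.contains (idx q).val = true := fun hc =>
        hqO (OctStab.mem_inPts.2 (List.contains_iff_mem.1 hc))
      have h1 := List.all_eq_true.1 ((hout _ hq).resolve_left hc) _ (OctStab.mem_inPts.1 (hpq.2 hqO))
      rw [Nat.beq_eq] at h1
      simp only [ent, Val, h1]
      rfl
  have hcomm : x * tt = tt * x := by
    refine ext_eights fun i => ?_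
    rw [mul_smul, mul_smul]
    refine Subtype.ext (funext fun p => ?_)
    have e1 := hx (tt • eight i) p
    have e2 := hx (eight i) p
    rw [tt_apply]
    rw [lin_apply] at e1 e2
    have hs : ∀ q, (tt • eight i).1 q * ent M p q = (if p ∈ O then 1 else -1) * ((eight i).1 q * ent M p q) := by
      intro q
      rw [tt_apply]
      by_cases hp : p ∈ O <;> by_cases hq : q ∈ O
      · simp [hp, hq]
      · simp [hblock p q (by tauto)]
      · simp [hblock p q (by tauto)]
      · simp [hp, hq]
    rw [Finset.sum_congr rfl fun q _ => hs q, ← Finset.mul_sum, ← e2] at e1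
    split_ifs with hp <;> simp only [hp, if_true, if_false] at e1 <;> omega
  let g : CZ := ⟨x, Subgroup.mem_centralizer_iff.2 fun h hh => by
    rw [Set.mem_singleton_iff.1 hh]; exact hcomm.symm⟩
  have hcol : ∀ k, bar (x • dV (pos k)).1 = vec8 ((genCols.getD n []).getD (pos k).val 0) := by
    intro k
    funext i
    rw [bar, crd, ← hk i k, dot_supp (supp_smul g (supp_dV _))]
    refine congrArg (fun a : ℤ => ((a / 16 : ℤ) : ZMod 2)) (Finset.sum_congr rfl fun p _ => ?_)
    have e := hx (dV (pos k)) (pt p)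
    rw [lin_apply, sum_supp _ (fun q hq => by rw [supp_dV _ q hq, zero_mul])] at e
    rw [vecO_pt]
    refine congrArg (fun a : ℤ => a * (2 * eC (pos i) p)) ?_
    have : ∀ j, (dV (pos k)).1 (pt j) = 2 * dC (pos k) j := fun j => vecO_pt _ j
    simp only [this] at e
    rw [← e]
    exact (Int.mul_ediv_cancel_left _ (by norm_num)).symm
  refine ⟨g, fun y hy => funext fun i => ?_⟩
  have hc := List.all_eq_true.1 cols_ok (genCols.getD n [])
    (by rw [List.getD_eq_getElem _ _ hn]; exact List.getElem_mem _)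
  simp only [colsChk, List.all_eq_true, List.mem_range, Bool.and_eq_true, decide_eq_true_eq] at hc
  rw [← (hc y hy).2 i]
  show ∑ k, bar ((g : Co0) • dV (pos k)).1 i * vec8 y k = _
  exact Finset.sum_congr rfl fun k _ => by rw [show (g : Co0) = x from rfl, hcol]

theorem act_mul (A B : O8) (x : V8) : act (A * B) x = act A (act B x) := by
  simp [act, Matrix.mulVec_mulVec]

theorem transitive {x : V8} (hx : Cfsg.quadFormPlus 4 (ZMod 2) x ≠ 0) : ∃ g : CZ, act (phi g) p0 = x := by
  obtain ⟨hxe, hlt⟩ := vec_enc x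
  have hr := reach_ok
  simp only [reachChk, List.all_eq_true (l := List.range 256), List.mem_range, Bool.or_eq_true,
    decide_eq_true_eq] at hr
  obtain ⟨a, -, ha⟩ := List.any_eq_true.1 ((hr _ hlt).resolve_left (by rw [hxe]; exact hx))
  simp only [Bool.and_eq_true, Nat.beq_eq, List.all_eq_true, Nat.blt_eq] at ha
  have key : ∀ l : List ℕ, (∀ i ∈ l, i < genCols.length) →
      ev l < 256 ∧ ∃ g : CZ, act (phi g) p0 = vec8 (ev l) := by
    intro l
    induction l with
    | nil => intro _; exact ⟨(vec_enc p0).2, 1, by rw [map_one]; exact (Matrix.one_mulVec _).trans (vec_enc p0).1.symm⟩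
    | cons i r ih =>
      intro hl
      obtain ⟨hb, g, hg⟩ := ih fun j hj => hl j (List.mem_cons_of_mem _ hj)
      have hi := hl i List.mem_cons_self
      obtain ⟨s, hs⟩ := exists_gen hi
      have hc := List.all_eq_true.1 cols_ok (genCols.getD i [])
        (by rw [List.getD_eq_getElem _ _ hi]; exact List.getElem_mem _)
      simp only [colsChk, List.all_eq_true, List.mem_range, Bool.and_eq_true, Nat.blt_eq] at hc
      refine ⟨(hc _ hb).1, s * g, ?_⟩
      rw [map_mul, act_mul, hg]
      exact hs _ hb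
  obtain ⟨-, g, hg⟩ := key a.2 ha.1.2
  exact ⟨g, by rw [hg, ha.2, hxe]⟩

end CfsgLib.Leech.Co1Cent
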