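/-
The centraliser of an involution of the first Conway group.
-/
import Cfsg.Agent.Leech.Co1Cent.Group
import Cfsg.Agent.Leech.Co2Cent.Main
import Cfsg.Agent.OrthOrder.Orders
import Cfsg.Agent.OrthOrder.Center
import Cfsg.Agent.Forms.OrthBasics
import Cfsg.Agent.Components.Basic
import Cfsg.Agent.S0296

set_option autoImplicit false
set_option maxRecDepth 100000

namespace CfsgLib.Leech.Co1Cent

open Cfsg CfsgLib.Golay Matrix CfsgLib.Leech.Co3Mult MulAction
open CfsgLib.Leech.Co2Cent (O Supp tt tt_apply tt_fix_iff CG KQ up vecU_supp kel kel_fix kel_mem cset cset_mem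
  flipSet mem_flipSet moved moved_one perm16 perm16_spec code_in_octad)
open scoped Pointwise symmDiff

/-! ### The image -/

theorem card_O8 : Nat.card O8 = 348364800 := by
  rw [CfsgLib.OrthOrder.natCard_isometryGroup (CfsgLib.Forms.quadPlus (ZMod 2) 4)
    (CfsgLib.Forms.coe_quadPlus (ZMod 2) 4), CfsgLib.OrthOrder.card_isom_plus 3, ZMod.card]
  norm_num [Finset.prod_range_succ]

theorem card_ns : Nat.card {x : V8 // Cfsg.quadFormPlus 4 (ZMod 2) x ≠ 0} = 120 := by
  rw [Nat.card_eq_fintype_card, Fintype.card_subtype]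
  decide +kernel

theorem q_p0 : Cfsg.quadFormPlus 4 (ZMod 2) p0 ≠ 0 := by
  rw [p0, form_bar Spor.leechU.2 vecU_supp, sqNorm_u]; decide

/-- The map from the stabiliser. -/
def sPhi : CG →* O8 := phi.comp inCZ

theorem ker_sPhi : sPhi.ker = KQ := Subgroup.ext fun _ => MonoidHom.mem_ker.trans inCZ_mem_ker

theorem card_sPhi : Nat.card sPhi.range = 1451520 := by
  rw [← Nat.card_congr (QuotientGroup.quotientKerEquivRange sPhi).toEquiv, ker_sPhi,
    Nat.card_congr (QuotientGroup.quotientKerEquivOfSurjective Co2Cent.phi Co2Cent.phi_surjective).toEquiv,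
    CfsgLib.SpSixTwo.card_G0]

theorem card_range : Nat.card phi.range = 174182400 := by
  let f : phi.range → {x : V8 // Cfsg.quadFormPlus 4 (ZMod 2) x ≠ 0} := fun A => ⟨act A.1 p0, by
    obtain ⟨g, hg⟩ := A.2
    rw [← hg, act_phi, form_mat]
    exact q_p0⟩
  have hsurj : Function.Surjective f := fun x => by
    obtain ⟨g, hg⟩ := transitive x.2
    exact ⟨⟨phi g, g, rfl⟩, Subtype.ext hg⟩
  choose sec hsec using hsurj
  have hfix : ∀ A : O8, A ∈ sPhi.range → act A p0 = p0 := by
    rintro _ ⟨c, rfl⟩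
    show act (phi (inCZ c)) p0 = p0
    rw [act_p0, coe_inCZ, Co2Cent.up_fix]
    rfl
  have hin : ∀ A : phi.range, (sec (f A)).1⁻¹ * A.1 ∈ sPhi.range := by
    intro A
    have hm := phi.range.mul_mem (phi.range.inv_mem (sec (f A)).2) A.2
    obtain ⟨g, hg⟩ := hm
    have h0 : act (sec (f A)).1 p0 = act A.1 p0 := congrArg Subtype.val (hsec (f A))
    have hp : act (phi g) p0 = p0 := by
      rw [hg, act_mul, ← h0, ← act_mul, inv_mul_cancel]
      exact Matrix.one_mulVec _
    obtain ⟨c, hc⟩ := stab_p0 hp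
    refine ⟨c, ?_⟩
    rw [← hg]
    rcases hc with rfl | rfl
    · rfl
    · rw [map_mul, phi_negC, mul_one]; rfl
  have hle : sPhi.range ≤ phi.range := by
    rintro _ ⟨c, rfl⟩; exact ⟨inCZ c, rfl⟩
  let e : phi.range ≃ {x : V8 // Cfsg.quadFormPlus 4 (ZMod 2) x ≠ 0} × sPhi.range :=
    { toFun := fun A => (f A, ⟨_, hin A⟩)
      invFun := fun p => ⟨(sec p.1).1 * p.2.1, phi.range.mul_mem (sec p.1).2 (hle p.2.2)⟩
      left_inv := fun A => Subtype.ext (mul_inv_cancel_left _ _)
      right_inv := fun p => by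
        have h1 : f ⟨(sec p.1).1 * p.2.1, phi.range.mul_mem (sec p.1).2 (hle p.2.2)⟩ = p.1 := by
          refine Subtype.ext ?_
          show act ((sec p.1).1 * p.2.1) p0 = p.1.1
          rw [act_mul, hfix _ p.2.2]
          exact congrArg Subtype.val (hsec p.1)
        refine Prod.ext h1 (Subtype.ext ?_)
        show (sec (f _)).1⁻¹ * ((sec p.1).1 * p.2.1) = p.2.1
        rw [h1, inv_mul_cancel_left] }
  rw [Nat.card_congr e, Nat.card_prod, card_ns, card_sPhi]

/-- The derived group. -/
abbrev Om : Subgroup O8 := Cfsg.Omega (ZMod 2) (Cfsg.quadFormPlus 4 (ZMod 2))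

theorem index_Om : Om.index = 2 := by
  have h := CfsgLib.Forms.index_Omega_two (Q := CfsgLib.Forms.quadPlus (ZMod 2) 4)
    (by decide) (CfsgLib.Forms.nondegenerate_quadPlus 4) (Or.inr (by simp)) (by simp)
  rwa [CfsgLib.Forms.coe_quadPlus] at h

theorem range_phi : phi.range = Om := by
  have hidx : phi.range.index = 2 := by
    have h := phi.range.index_mul_card
    rw [card_range, card_O8] at h
    exact Nat.eq_of_mul_eq_mul_right (by norm_num : 0 < 174182400) (h.trans (by norm_num))
  haveI : phi.range.Normal := Subgroup.normal_of_index_eq_two hidx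
  have hle : Om ≤ phi.range := by
    haveI : IsMulCommutative (O8 ⧸ phi.range) := by
      haveI : Fact (Nat.Prime 2) := ⟨Nat.prime_two⟩
      haveI : IsCyclic (O8 ⧸ phi.range) := isCyclic_of_prime_card (p := 2) hidx
      infer_instance
    exact Subgroup.Normal.quotient_commutative_iff_commutator_le.1 inferInstance
  refine (le_antisymm hle ?_).symm
  have h := Subgroup.relIndex_mul_index hle
  rw [hidx, index_Om] at h
  exact Subgroup.relIndex_eq_one.1 (by omega)

/-- The map onto the derived group. -/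
def chi : CZ →* Om := phi.codRestrict Om fun g => range_phi ▸ ⟨g, rfl⟩

theorem chi_surjective : Function.Surjective chi := fun A => by
  have h : A.1 ∈ phi.range := range_phi.symm ▸ A.2
  obtain ⟨g, hg⟩ := h
  exact ⟨g, Subtype.ext hg⟩

theorem card_Om : Nat.card Om = 174182400 := range_phi ▸ card_range

theorem center_Om : Subgroup.center Om = ⊥ := by
  refine Subgroup.eq_bot_of_card_eq _ ?_
  have h := CfsgLib.OrthOrder.card_center_char_two (Q := CfsgLib.Forms.quadPlus (ZMod 2) 4) (by decide)
      (CfsgLib.Forms.nondegenerate_quadPlus 4) (by simp)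
  rwa [CfsgLib.Forms.coe_quadPlus] at h

theorem isSimpleGroup_Om : IsSimpleGroup Om := by
  haveI := Cfsg.Agent.S0296.result (F := ZMod 2) 4 le_rfl
  let e : Cfsg.POmega (ZMod 2) (Cfsg.quadFormPlus 4 (ZMod 2)) ≃* Om :=
    (QuotientGroup.quotientMulEquivOfEq center_Om).trans QuotientGroup.quotientBot
  haveI : Nontrivial Om := e.symm.toEquiv.nontrivial
  exact IsSimpleGroup.isSimpleGroup_of_surjective e.toMonoidHom e.surjective

/-! ### Centralisers -/

theorem sep_ok : ∀ p q : GolayPt, p ∉ O → q ∉ O → p ≠ q → ∃ j : Fin 32, p ∈ cset j ∧ q ∉ cset j := by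
  decide +kernel

/-- An element commuting with the kernel fixes the classes. -/
theorem comm_kel {g : CZ} (h : ∀ x, (g : Co0) * kel x = kel x * g) : phi g = 1 := by
  have hdiag : ∀ p, p ∉ O → ∀ q, q ≠ p → ((g : Co0) • eight p).1 q = 0 := by
    intro p hp q hqp
    obtain ⟨j, hpj, hqj⟩ : ∃ j, p ∈ cset j ∧ q ∉ cset j := by
      by_cases hq : q ∈ O
      · obtain ⟨r, hr, hrp⟩ : ∃ r, r ∉ O ∧ r ≠ p := by
          by_cases e : p = ptN 1
          · exact ⟨ptN 3, by decide +kernel, e ▸ by decide +kernel⟩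
          · exact ⟨ptN 1, OctStab.p0_not_mem, Ne.symm e⟩
        obtain ⟨j, hj, -⟩ := sep_ok p r hp hr hrp.symm
        exact ⟨j, hj, fun hc => Finset.disjoint_left.1 (cset_mem j).2 hc hq⟩
      · exact sep_ok p q hp hq hqp.symm
    have hneg : kel (0, j) • eight p = -eight p := Subtype.ext (funext fun r => by
      show ((kel (0, j)).1 (eight p)).1 r = _
      rw [kel, mono_apply]
      simp only [signedPerm, moved_one.1, perm_one_symm, AddSubgroup.coe_neg, Pi.neg_apply, eight]
      by_cases hr : r = p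
      · subst hr; rw [if_pos hpj]
      · rw [Pi.single_eq_of_ne hr, neg_zero]; split_ifs <;> simp)
    have e := congrArg (fun v : leechLattice => v.1 q) (congrArg (fun k : Co0 => k • eight p) (h (0, j))).symm
    simp only [mul_smul, hneg] at e
    rw [show (g : Co0) • -eight p = -((g : Co0) • eight p) from map_neg (hom (g : Co0)) _] at e
    simp only [AddSubgroup.coe_neg, Pi.neg_apply] at e
    rw [show (kel (0, j) • ((g : Co0) • eight p)).1 q = signedPerm (perm16 0) (cset j) ((g : Co0) • eight p).1 q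
      from congrFun (mono_apply _ _ _) q] at e
    simp only [signedPerm, moved_one.1, perm_one_symm, if_neg hqj] at e
    omega
  have hp1 := OctStab.p0_not_mem
  have hsgn : ∀ p, p ∉ O → ((g : Co0) • eight p).1 p = 8 ∨ ((g : Co0) • eight p).1 p = -8 := by
    intro p hp
    have e : ((g : Co0) • eight p).1 = Pi.single p (((g : Co0) • eight p).1 p) := funext fun q => by
      by_cases hq : q = p
      · subst hq; simp
      · rw [hdiag p hp q hq, Pi.single_eq_of_ne hq]
    have h2 := norm_smul (g : Co0) (eight p)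
    rw [e] at h2
    simp only [eight, sqNorm_single] at h2
    exact sq_eq_sq_iff_eq_or_eq_neg.1 (h2.trans rfl)
  have hcross : (g : Co0) ∈ crossStab := mem_crossStab_of_eight (i := ptN 1) (by
    rcases hsgn _ hp1 with e | e
    · refine ⟨ptN 1, 8, Or.inl rfl, funext fun q => ?_⟩
      by_cases hq : q = ptN 1
      · subst hq; rw [e]; simp
      · rw [hdiag _ hp1 q hq, Pi.single_eq_of_ne hq]
    · refine ⟨ptN 1, -8, Or.inr rfl, funext fun q => ?_⟩
      by_cases hq : q = ptN 1
      · subst hq; rw [e]; simp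
      · rw [hdiag _ hp1 q hq, Pi.single_eq_of_ne hq])
  obtain ⟨σ, hσ, c, hc, e⟩ := stab_mono (g : Co0) hcross
  have hfix : ∀ p, p ∉ O → σ p = p := by
    intro p hp
    by_contra hne
    have h1 := hdiag p hp (σ p) hne
    rw [e, show (mono hσ hc • eight p).1 = signedPerm σ c (eight p).1 from mono_apply _ _ _] at h1
    simp only [signedPerm, σ.symm_apply_apply, eight, Pi.single_eq_same] at h1
    split_ifs at h1 <;> omega
  have hσ1 : σ = 1 := OctStab.eq_one_of_sep hσ (fx := OctStab.outPts) (by decide) (by decide) OctStab.sep_outPts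
    fun b hb => hfix _ (OctStab.mem_outPts.2 (by rw [idx_ptN ((by decide : ∀ i ∈ OctStab.outPts, i < 24) b hb)]; exact hb))
  subst hσ1
  have hinv : ∀ i, perm16 i • c = c := by
    intro i
    have h1 := h (i, 0)
    rw [e, kel, mono_mul, mono_mul] at h1
    have h2 := (mono_injective _ _ _ _ h1).2
    dsimp only at h2
    simpa only [moved_one.2, one_smul, show ∀ A : Finset GolayPt, A ∆ ∅ = A from fun A => symmDiff_bot A,
      show ∀ A : Finset GolayPt, ∅ ∆ A = A from fun A => bot_symmDiff A, Finset.smul_finset_empty] using h2.symm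
  have hout : ∀ p, p ∉ O → (p ∈ c ↔ ptN 1 ∈ c) := by
    intro p hp
    obtain ⟨t, ht, rfl⟩ := OctStab.exists_transl hp
    obtain ⟨i, hi, hti⟩ := List.getElem_of_mem ht
    have hi16 : i < 16 := OctStruct.transl_data.1 ▸ hi
    have := hinv ⟨i, hi16⟩
    rw [perm16, List.getD_eq_getElem _ _ hi, hti] at this
    conv_lhs => rw [← this]
    exact Finset.smul_mem_smul_finset_iff _
  obtain ⟨s, hs, hsO⟩ : ∃ s, IsCodeSet s ∧ s ⊆ O ∧ ∀ p ∈ O, (p ∈ s ↔ p ∈ c) := by
    by_cases h1 : ptN 1 ∈ c
    · refine ⟨c ∆ flipSet, symm_mem_code hc Co2Cent.flipSet_mem, fun p hp => ?_, fun p hp => ?_⟩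
      · by_contra ho
        rw [Finset.mem_symmDiff, mem_flipSet, hout p ho] at hp
        tauto
      · rw [Finset.mem_symmDiff, mem_flipSet]; tauto
    · exact ⟨c, hc, fun p hp => by by_contra ho; exact h1 ((hout p ho).1 hp), fun p _ => Iff.rfl⟩
  have hcases : s = ∅ ∨ s = O := by
    have hm := List.all_eq_true.1 code_in_octad (mask s) (mem_codeList.2 ⟨mem_supports_iff.1 hs, mask_lt s⟩)
    have hsub : mask s ||| octO = octO := Nat.eq_of_testBit_eq fun k => by
      rw [Nat.testBit_or]
      by_cases hk : k < 24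
      · by_cases hks : ptN k ∈ s
        · have := mem_toSet.1 (hsO.1 hks)
          rw [idx_ptN hk] at this
          rw [this, Bool.or_true]
        · have := testBit_mask s (ptN k)
          rw [idx_ptN hk] at this
          rw [this, decide_eq_false hks, Bool.false_or]
      · rw [Nat.testBit_lt_two_pow (lt_of_lt_of_le (mask_lt s) (Nat.pow_le_pow_right (by norm_num) (not_lt.1 hk))),
          Bool.false_or]
    rw [show Nat.beq (mask s ||| octO) octO = true by rw [Nat.beq_eq]; exact hsub, cond_true, Bool.or_eq_true,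
      Nat.beq_eq, Nat.beq_eq] at hm
    rcases hm with hm | hm
    · exact Or.inl (by rw [← toSet_mask s, hm]; decide +kernel)
    · exact Or.inr (by rw [← toSet_mask s, hm])
  have hact : ∀ v : leechLattice, Supp v.1 → ((g : Co0) • v = v ∨ (g : Co0) • v = -v) ∧
      (s = ∅ → (g : Co0) • v = v) := by
    intro v hv
    have key : ∀ r, ((g : Co0) • v).1 r = if r ∈ s then -v.1 r else v.1 r := by
      intro r
      rw [e, show (mono hσ hc • v).1 = signedPerm 1 c v.1 from mono_apply _ _ _]
      simp only [signedPerm, perm_one_symm]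
      by_cases hr : r ∈ O
      · simp only [hsO.2 r hr]
      · simp [hv r hr]
    have h0 : s = ∅ → (g : Co0) • v = v := fun hs0 => Subtype.ext (funext fun r => by rw [key, hs0]; simp)
    refine ⟨?_, h0⟩
    rcases hcases with hs0 | hs1
    · exact Or.inl (h0 hs0)
    · refine Or.inr (Subtype.ext (funext fun r => ?_))
      rw [key, hs1, AddSubgroup.coe_neg, Pi.neg_apply]
      by_cases hr : r ∈ O
      · rw [if_pos hr]
      · rw [if_neg hr, hv r hr, neg_zero]
  refine phi_eq_one.2 (Matrix.ext fun i k => ?_)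
  show bar ((g : Co0) • dV (pos k)).1 i = _
  rcases (hact _ (supp_dV (pos k))).1 with e | e <;> rw [e, Matrix.one_apply]
  · exact bar_dV i k
  · clear * - i k; revert i k; decide +kernel

/-- The projection to the first Conway group. -/
abbrev mk1 : Co0 →* Spor.Co1 := QuotientGroup.mk' (Subgroup.center Co0)

/-- The involution. -/
abbrev zz : Spor.Co1 := mk1 tt

/-- Its centraliser. -/
abbrev C1 : Subgroup Spor.Co1 := Subgroup.centralizer ({zz} : Set Spor.Co1)

/-- The projection of the centraliser. -/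
def psi : CZ →* C1 := (mk1.comp CZ.subtype).codRestrict C1 fun g =>
  Subgroup.mem_centralizer_iff.2 fun h hh => by
    rw [Set.mem_singleton_iff.1 hh]
    show mk1 tt * mk1 (g : Co0) = mk1 (g : Co0) * mk1 tt
    rw [← map_mul, ← map_mul, cz_comm]

theorem no_anti {x : Co0} (h : x * tt = negOne * tt * x) : False := by
  have hs : ∀ p, p ∉ O → Supp (x • eight p).1 := by
    intro p hp
    rw [← tt_fix_iff]
    have h1 : tt • eight p = negOne • eight p := by
      rw [show negOne • eight p = -eight p from negOne_apply _]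
      refine Subtype.ext (funext fun q => ?_)
      rw [tt_apply, AddSubgroup.coe_neg, Pi.neg_apply]
      by_cases hq : q ∈ O
      · rw [if_pos hq, show (eight p).1 q = 0 from Pi.single_eq_of_ne (fun e : q = p => hp (e ▸ hq)) _, neg_zero]
      · rw [if_neg hq]
    have h2 : negOne • (tt • (x • eight p)) = negOne • (x • eight p) := by
      rw [smul_smul, smul_smul, ← h, mul_smul, h1, smul_smul, smul_smul]
      rw [Subgroup.mem_center_iff.1 negOne_central x]
    exact smul_left_cancel negOne h2
  let f : {p : GolayPt // p ∉ O} → (Fin 8 → ℚ) := fun p j => (((x • eight p.1).1 (pt j) : ℤ) : ℚ)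
  have hdot : ∀ a b, ∑ j, f a j * f b j = if a = b then 64 else 0 := by
    intro a b
    have := dot_smul x (eight a.1) (eight b.1)
    rw [dot_supp (hs _ a.2), show dotInt (eight a.1).1 (eight b.1).1 = if a = b then 64 else 0 by
      by_cases hab : a = b
      · subst hab; simp [dotInt, eight, Pi.single_apply]
      · have : a.1 ≠ b.1 := fun e => hab (Subtype.ext e)
        simp [dotInt, eight, Pi.single_apply, hab, this, this.symm]] at this
    have h2 := congrArg (fun n : ℤ => (n : ℚ)) this
    simp only [Int.cast_sum, Int.cast_mul, apply_ite (fun n : ℤ => (n : ℚ)), Int.cast_ofNat, Int.cast_zero] at h2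
    exact h2
  have hli : LinearIndependent ℚ f := by
    rw [Fintype.linearIndependent_iff]
    intro c hc b
    have h3 : ∑ j, (∑ a, c a • f a) j * f b j = 0 := by rw [hc]; simp
    simp only [Finset.sum_apply, Pi.smul_apply, smul_eq_mul, Finset.sum_mul] at h3
    rw [Finset.sum_comm] at h3
    simp only [mul_assoc, ← Finset.mul_sum, hdot, mul_ite, mul_zero, Finset.sum_ite_eq', Finset.mem_univ,
      if_true] at h3
    linarith
  have h16 := hli.fintype_card_le_finrank
  rw [Module.finrank_fintype_fun_eq_card, Fintype.card_fin,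
    show Fintype.card {p : GolayPt // p ∉ O} = 16 by decide +kernel] at h16
  omega

theorem lift_rel {x y : Co0} (h : mk1 x = mk1 y) : x = y ∨ x = negOne * y := by
  rcases center_eq _ (QuotientGroup.eq.1 h.symm) with e | e
  · exact Or.inl (inv_mul_eq_one.1 e).symm
  · refine Or.inr ?_
    rw [← Subgroup.mem_center_iff.1 negOne_central y, ← e, mul_inv_cancel_left]

theorem psi_surjective : Function.Surjective psi := fun c => by
  obtain ⟨x, hx⟩ := QuotientGroup.mk'_surjective (Subgroup.center Co0) c.1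
  have h := Subgroup.mem_centralizer_iff.1 c.2 zz rfl
  rw [← hx, ← map_mul, ← map_mul] at h
  rcases lift_rel h.symm with e | e
  · exact ⟨⟨x, Subgroup.mem_centralizer_iff.2 fun y hy => by rw [Set.mem_singleton_iff.1 hy]; exact e.symm⟩,
      Subtype.ext hx⟩
  · exact (no_anti (e.trans (mul_assoc _ _ _).symm)).elim

theorem psi_ker {g : CZ} (h : psi g = 1) : g = 1 ∨ g = negC := by
  have h1 : mk1 (g : Co0) = 1 := congrArg Subtype.val h
  rcases center_eq _ ((QuotientGroup.eq_one_iff _).1 h1) with e | e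
  · exact Or.inl (Subtype.ext e)
  · exact Or.inr (Subtype.ext e)

theorem psi_negC : psi negC = 1 :=
  Subtype.ext ((QuotientGroup.eq_one_iff _).2 negOne_central)

theorem ker_psi_le : psi.ker ≤ chi.ker := fun g hg => by
  refine MonoidHom.mem_ker.2 (Subtype.ext ?_)
  show phi g = 1
  rcases psi_ker (MonoidHom.mem_ker.1 hg) with rfl | rfl
  · exact map_one _
  · exact phi_negC

/-- The action of the centraliser on the classes. -/
noncomputable def rho : C1 →* Om :=
  (QuotientGroup.lift psi.ker chi ker_psi_le).comp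
    (QuotientGroup.quotientKerEquivOfSurjective psi psi_surjective).symm.toMonoidHom

theorem rho_psi (g : CZ) : rho (psi g) = chi g := by
  have : (QuotientGroup.quotientKerEquivOfSurjective psi psi_surjective).symm (psi g) = QuotientGroup.mk g :=
    (MulEquiv.symm_apply_eq _).2 rfl
  simp only [rho, MonoidHom.comp_apply, MulEquiv.coe_toMonoidHom]
  rw [this]
  rfl

theorem rho_surjective : Function.Surjective rho := fun A => by
  obtain ⟨g, hg⟩ := chi_surjective A
  exact ⟨psi g, (rho_psi g).trans hg⟩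

theorem psi_mem_ker {g : CZ} : psi g ∈ rho.ker ↔ phi g = 1 := by
  rw [MonoidHom.mem_ker, rho_psi]
  exact ⟨fun h => congrArg Subtype.val h, fun h => Subtype.ext h⟩

/-- The kernel map. -/
noncomputable def kMap : KQ →* rho.ker := ((psi.comp inCZ).comp KQ.subtype).codRestrict _ fun c => by
  rw [MonoidHom.comp_apply, MonoidHom.comp_apply, psi_mem_ker]
  exact inCZ_mem_ker.2 c.2

theorem kMap_bijective : Function.Bijective kMap := by
  constructor
  · refine (injective_iff_map_eq_one _).2 fun c hc => ?_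
    have h : psi (inCZ c.1) = 1 := congrArg Subtype.val hc
    rcases psi_ker h with e | e
    · exact Subtype.ext (Co2Cent.up_injective ((congrArg Subtype.val e).trans (map_one up).symm))
    · exfalso
      have h2 := Co2Cent.up_fix c.1
      rw [← coe_inCZ, e, negC_smul] at h2
      have h3 := congrArg (fun v : leechLattice => v.1 none) h2
      revert h3; decide +kernel
  · rintro ⟨a, ha⟩
    obtain ⟨g, rfl⟩ := psi_surjective a
    obtain ⟨c, hc, hg⟩ := phi_ker (psi_mem_ker.1 ha)
    refine ⟨⟨c, hc⟩, Subtype.ext ?_⟩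
    show psi (inCZ c) = psi g
    rcases hg with rfl | rfl
    · rfl
    · rw [map_mul, psi_negC, mul_one]

theorem centralizer_le : Subgroup.centralizer (rho.ker : Set C1) ≤ rho.ker := by
  intro a ha
  obtain ⟨g, rfl⟩ := psi_surjective a
  refine psi_mem_ker.2 (comm_kel fun x => ?_)
  obtain ⟨c, hc, hcx⟩ := kel_mem x
  have h := Subgroup.mem_centralizer_iff.1 ha _ (kMap ⟨c, hc⟩).2
  have h' : mk1 ((g : Co0) * kel x) = mk1 (kel x * g) := by
    rw [map_mul, map_mul, ← hcx]
    exact (congrArg Subtype.val h).symm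
  refine (lift_rel h').resolve_right fun e => ?_
  have h0 := congrArg (fun k : Co0 => k • dV 0) e
  simp only [mul_smul, kel_fix x (supp_dV 0), kel_fix x (supp_smul g (supp_dV 0))] at h0
  rw [show negOne • ((g : Co0) • dV 0) = -((g : Co0) • dV 0) from negOne_apply _] at h0
  have h1 := congrArg (fun v : leechLattice => sqNorm v.1) (eq_neg_iff_add_eq_zero.1 h0)
  simp only [AddSubgroup.coe_add, sqNorm_add, dot_self, norm_smul] at h1
  revert h1
  decide +kernel

theorem pCore_eq : Cfsg.pCore 2 C1 = rho.ker := by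
  haveI := isSimpleGroup_Om
  refine le_antisymm (sSup_le fun N hN => ?_)
    (le_sSup ⟨inferInstance, IsPGroup.of_card ((Nat.card_congr (Equiv.ofBijective _ kMap_bijective)).symm.trans
      Co2Cent.card_KQ)⟩)
  obtain ⟨hn, hp⟩ := hN
  rcases (hn.map _ rho_surjective).eq_bot_or_eq_top with h | h
  · intro x hx
    refine MonoidHom.mem_ker.2 (Subgroup.mem_bot.1 ?_)
    rw [← h]
    exact Subgroup.mem_map_of_mem _ hx
  · exfalso
    have hp2 : IsPGroup 2 (N.map rho) := hp.map _
    rw [h] at hp2
    haveI : Fact (Nat.Prime 2) := ⟨Nat.prime_two⟩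
    obtain ⟨n, hn2⟩ := IsPGroup.iff_card.1 hp2
    rw [Subgroup.card_top, card_Om] at hn2
    have h3 : 3 ∣ 2 ^ n := hn2 ▸ (by norm_num : (3 : ℕ) ∣ 174182400)
    have := Nat.le_of_dvd (by norm_num) ((by norm_num : Nat.Prime 3).dvd_of_dvd_pow h3)
    omega

theorem kel_data : ∃ j : Fin 32, cset j ∈ octads ∧ ptN 1 ∉ cset j := by
  have h : ∃ j : Fin 32, (cset j).card = 8 ∧ ptN 1 ∉ cset j := by decide +kernel
  obtain ⟨j, hj, h1⟩ := h
  exact ⟨j, ⟨(cset_mem j).1, hj⟩, h1⟩

theorem neg_eight (p : GolayPt) : -eight p ≠ eight p := fun e => by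
  have := congrArg (fun v : leechLattice => v.1 p) e
  simp [eight] at this

theorem orderOf_zz : orderOf zz = 2 := by
  haveI : Fact (Nat.Prime 2) := ⟨Nat.prime_two⟩
  refine orderOf_eq_prime ?_ fun h => ?_
  · have htt : tt * tt = 1 := by
      refine Subtype.ext (Equiv.ext fun v => Subtype.ext (funext fun p => ?_))
      show (tt • (tt • v)).1 p = v.1 p
      rw [tt_apply, tt_apply]
      split_ifs <;> simp
    rw [pow_two, ← map_mul, htt, map_one]
  · rcases lift_rel (h.trans (map_one mk1).symm) with e | e <;>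
      have h1 := congrArg (fun k : Co0 => ((k • eight (ptN 1)).1 (ptN 1), (k • eight (ptN 0)).1 (ptN 0))) e
    · simp only [one_smul, tt_apply, if_neg OctStab.p0_not_mem, Prod.mk.injEq] at h1
      simp [eight] at h1
    · rw [mul_one] at h1
      simp only [show ∀ v : leechLattice, negOne • v = -v from negOne_apply, tt_apply, if_pos (show ptN 0 ∈ O by decide +kernel),
        AddSubgroup.coe_neg, Pi.neg_apply, Prod.mk.injEq] at h1
      simp [eight] at h1

/-- The first Conway group has an involution with large extraspecial two-core of its centraliser. -/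
theorem co1_centraliser : ∃ z : Spor.Co1, orderOf z = 2 ∧ ∃ (Q : Subgroup (Subgroup.centralizer ({z} : Set Spor.Co1)))
    (_ : Q.Normal), Cfsg.generalizedFittingSubgroup (Subgroup.centralizer ({z} : Set Spor.Co1)) = Q ∧
    Cfsg.IsExtraspecial 2 Q ∧ Nat.card Q = 2 ^ 9 ∧
    Nonempty ((Subgroup.centralizer ({z} : Set Spor.Co1)) ⧸ Q ≃* Cfsg.Omega (ZMod 2) (Cfsg.quadFormPlus 4 (ZMod 2))) ∧
    ∃ g : Spor.Co1, (∃ hq : g * z * g⁻¹ ∈ Subgroup.centralizer ({z} : Set Spor.Co1),
      (⟨g * z * g⁻¹, hq⟩ : Subgroup.centralizer ({z} : Set Spor.Co1)) ∈ Q) ∧ g * z * g⁻¹ ≠ z := by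
  haveI : Fact (Nat.Prime 2) := ⟨Nat.prime_two⟩
  haveI : Finite KQ := Finite.of_equiv _ Co2Cent.kEquiv
  haveI : Finite rho.ker := Finite.of_equiv _ (Equiv.ofBijective _ kMap_bijective)
  haveI : Finite Om := Nat.finite_of_card_ne_zero (by rw [card_Om]; norm_num)
  haveI : Finite (C1 ⧸ rho.ker) :=
    Finite.of_equiv Om (QuotientGroup.quotientKerEquivOfSurjective rho rho_surjective).symm.toEquiv
  haveI : Finite C1 := Finite.of_equiv _ (Subgroup.groupEquivQuotientProdSubgroup (s := rho.ker)).symm
  refine ⟨zz, orderOf_zz, rho.ker, inferInstance, ?_, ?_, ?_, ⟨QuotientGroup.quotientKerEquivOfSurjective rho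
    rho_surjective⟩, ?_⟩
  · rw [← pCore_eq, CfsgLib.Components.generalizedFitting_eq_pCore_iff, pCore_eq]
    exact centralizer_le
  · exact CfsgLib.SymplecticHall.isExtraspecial_congr (MulEquiv.ofBijective kMap kMap_bijective)
      Co2Cent.isExtraspecial_KQ
  · exact (Nat.card_congr (Equiv.ofBijective _ kMap_bijective)).symm.trans Co2Cent.card_KQ
  obtain ⟨j, hj, hj1⟩ := kel_data
  obtain ⟨σ, hσ, hσO⟩ := exists_map_octad OctStab.O_mem hj
  have hconj : kel (0, j) * mono hσ empty_mem = negOne * (mono hσ empty_mem * tt) := by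
    rw [kel, tt, negOne, mono_mul, mono_mul, mono_mul]
    refine mono_congr ?_ ?_
    · rw [moved_one.1, one_mul, one_mul, mul_one]
    · rw [Finset.smul_finset_empty, show ∀ A : Finset GolayPt, A ∆ ∅ = A from fun A => symmDiff_bot A,
        show ∀ A : Finset GolayPt, ∅ ∆ A = A from fun A => bot_symmDiff A, one_smul]
      ext p
      rw [Finset.mem_symmDiff, mem_smul_iff, mem_flipSet, ← hσO, mem_smul_iff]
      simp
  obtain ⟨c, hc, hcx⟩ := kel_mem (0, j)
  have he : mk1 (mono hσ empty_mem) * zz * (mk1 (mono hσ empty_mem))⁻¹ = mk1 (kel (0, j)) := by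
    rw [mul_inv_eq_iff_eq_mul, ← map_mul, ← map_mul, hconj, map_mul mk1 negOne,
      (QuotientGroup.eq_one_iff _).2 negOne_central |> (fun h : mk1 negOne = 1 => h), one_mul]
  refine ⟨mk1 (mono hσ empty_mem), ?_, fun h => ?_⟩
  · have hmem : mk1 (kel (0, j)) ∈ C1 := hcx ▸ (psi (inCZ c)).2
    refine ⟨he ▸ hmem, ?_⟩
    convert (kMap ⟨c, hc⟩).2 using 1
    refine Subtype.ext (he.trans ?_)
    rw [← hcx]
    rfl
  · rw [he] at h
    rcases lift_rel h with e | e
    · have h1 := congrArg (fun k : Co0 => (k • eight (ptN 1)).1 (ptN 1)) e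
      simp only [tt_apply, if_neg OctStab.p0_not_mem] at h1
      rw [show (kel (0, j) • eight (ptN 1)).1 = signedPerm (perm16 0) (cset j) (eight (ptN 1)).1 from mono_apply _ _ _] at h1
      simp only [signedPerm, moved_one.1, perm_one_symm, if_neg hj1, eight, Pi.single_eq_same] at h1
      omega
    · have h1 := congrArg (fun k : Co0 => k • dV 0) e
      simp only [mul_smul, kel_fix _ (supp_dV 0), tt_fix_iff.2 (supp_dV 0)] at h1
      rw [show negOne • dV 0 = -dV 0 from negOne_apply _] at h1
      revert h1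
      decide +kernel

end CfsgLib.Leech.Co1Cent
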